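import Mathlib
import Cfsg.Prelude.Def_OddOrderLocal
import Cfsg.Agent.Lib.Helper35.BG.Basic
import Cfsg.Agent.Lib.Helper9.BG.S1411Core
import Cfsg.Agent.Lib.Helper23.Transitivity3
import Cfsg.Agent.Lib.Helper75.BGUtil

/-!
Bender–Glauberman: `M_σ` is a normal Hall `σ(M)`-subgroup of a maximal subgroup `M`, and
`M_σ ≤ M'`.  Derived from fusion control (BG 10.1(a)) and the normal `q`-complements of `M'`
for `q ∉ β(M)` (BG 10.8), both taken as hypotheses.
-/

set_option autoImplicit false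

namespace Cfsg.Agent.Lib.Helper31.BG

open Cfsg Cfsg.Agent.Lib.Helper46 Cfsg.Agent.Lib.Helper35.BG
open scoped commutatorElement

/-- A subgroup whose order is coprime to the index of a normal subgroup `N` lies in `N`. -/
theorem le_of_coprime_index_normal {H : Type*} [Group H] [Finite H] (N R : Subgroup H) [N.Normal]
    (hcop : (Nat.card R).Coprime N.index) : R ≤ N := by
  have h1 : Nat.card (R.map (QuotientGroup.mk' N)) ∣ Nat.card R :=
    Subgroup.card_map_dvd (H := R) (QuotientGroup.mk' N)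
  have h2 : Nat.card (R.map (QuotientGroup.mk' N)) ∣ N.index := by
    rw [Subgroup.index_eq_card]
    exact Subgroup.card_subgroup_dvd_card _
  have h3 : Nat.card (R.map (QuotientGroup.mk' N)) = 1 :=
    Nat.eq_one_of_dvd_coprimes hcop h1 h2
  have h4 : R.map (QuotientGroup.mk' N) = ⊥ := Subgroup.card_eq_one.mp h3
  intro x hx
  have h5 : QuotientGroup.mk' N x ∈ R.map (QuotientGroup.mk' N) := ⟨x, hx, rfl⟩
  rw [h4, Subgroup.mem_bot] at h5
  exact (QuotientGroup.eq_one_iff x).mp h5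

/-- The normal `q`-complement of a subgroup `D`, as a subgroup of the ambient group: it contains
every subgroup of `D` of order prime to `q`. -/
theorem exists_qcompl {G : Type*} [Group G] [Finite G] (D : Subgroup G) (q : ℕ) [hq : Fact q.Prime]
    (h : Cfsg.HasNormalPComplement q ↥D) :
    ∃ K : Subgroup G, K ≤ D ∧ ¬ q ∣ Nat.card K ∧
      ∀ R : Subgroup G, R ≤ D → ¬ q ∣ Nat.card R → R ≤ K := by
  obtain ⟨S, N, hN, hc⟩ := h
  have hcard : Nat.card N * Nat.card (S : Subgroup ↥D) = Nat.card ↥D := hc.card_mul_card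
  have hidxN : N.index = Nat.card (S : Subgroup ↥D) := by
    have h1 := Subgroup.card_mul_index N
    have hpos : 0 < Nat.card N := Nat.card_pos
    exact Nat.eq_of_mul_eq_mul_left hpos (h1.trans hcard.symm)
  have hidxS : (S : Subgroup ↥D).index = Nat.card N := by
    have h1 := Subgroup.card_mul_index (S : Subgroup ↥D)
    have hpos : 0 < Nat.card (S : Subgroup ↥D) := Nat.card_pos
    apply Nat.eq_of_mul_eq_mul_left hpos
    rw [h1, ← hcard, mul_comm]
  refine ⟨N.map D.subtype, Subgroup.map_subtype_le N, ?_, ?_⟩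
  · rw [Subgroup.card_map_of_injective D.subtype_injective, ← hidxS]
    exact S.not_dvd_index
  · intro R hRD hqR
    have := hN
    have hcop : (Nat.card (R.subgroupOf D)).Coprime N.index := by
      rw [hidxN, Nat.card_congr (Subgroup.subgroupOfEquivOfLe hRD).toEquiv]
      obtain ⟨n, hn⟩ := IsPGroup.iff_card.mp S.isPGroup'
      rw [hn]
      exact Nat.Coprime.pow_right n ((Nat.Prime.coprime_iff_not_dvd hq.out).mpr hqR).symm
    have hle := le_of_coprime_index_normal N (R.subgroupOf D) hcop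
    intro x hx
    exact ⟨⟨x, hRD hx⟩, hle (Subgroup.mem_subgroupOf.mpr hx), rfl⟩

/-- The normal `q`-complement of `D` is normalized by everything normalizing `D`. -/
theorem le_normalizer_qcompl {G : Type*} [Group G] [Finite G] (M D K : Subgroup G) (q : ℕ)
    (hMD : M ≤ Subgroup.normalizer (D : Set G)) (hKD : K ≤ D) (hqK : ¬ q ∣ Nat.card K)
    (hmax : ∀ R : Subgroup G, R ≤ D → ¬ q ∣ Nat.card R → R ≤ K) :
    M ≤ Subgroup.normalizer (K : Set G) := by
  intro m hm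
  apply Cfsg.Agent.Lib.Helper75.BG.mem_normalizer_of_map_le
  apply hmax
  · rintro _ ⟨k, hk, rfl⟩
    exact (Subgroup.mem_normalizer_iff.mp (hMD hm) k).mp (hKD hk)
  · rw [card_map_conj]
    exact hqK

/-- `M` normalizes its derived subgroup. -/
theorem le_normalizer_commutator_self {G : Type*} [Group G] (M : Subgroup G) :
    M ≤ Subgroup.normalizer ((⁅M, M⁆ : Subgroup G) : Set G) := by
  intro m hm
  rw [Subgroup.mem_normalizer_iff]
  have key : ∀ g : G, g ∈ M → ∀ x, x ∈ ⁅M, M⁆ → g * x * g⁻¹ ∈ ⁅M, M⁆ := by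
    intro g hg x hx
    have hxM : x ∈ M := Subgroup.commutator_le_self M hx
    have e : g * x * g⁻¹ = ⁅g, x⁆ * x := by
      rw [commutatorElement_def]; group
    rw [e]
    exact mul_mem (Subgroup.commutator_mem_commutator hg hxM) hx
  intro x
  constructor
  · exact key m hm x
  · intro hx
    have := key m⁻¹ (inv_mem hm) _ hx
    have e : m⁻¹ * (m * x * m⁻¹) * m⁻¹⁻¹ = x := by group
    rwa [e] at this

/-- A Sylow `p`-subgroup of `M`, `p ∈ σ(M)`, is a Sylow `p`-subgroup of `G`, packaged as a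
`Sylow`. -/
theorem exists_sylow_of_sigma {G : Type*} [Group G] [Finite G] {M : Subgroup G} {p : ℕ}
    [Fact p.Prime] (hp : p ∈ sigma M) {P : Subgroup G} (hP : IsSylowIn p P M) :
    ∃ S : Sylow p G, (S : Subgroup G) = P := by
  have h1 := isSylowIn_top_of_sigma hp hP
  have hc : Nat.card P = p ^ (Nat.card G).factorization p := by
    rw [h1.2, Subgroup.card_top]
  exact ⟨Sylow.ofCard P hc, Sylow.coe_ofCard P hc⟩

/-- For `p ∈ σ(M)`, every Sylow `p`-subgroup of `M` lies in `M'` (focal subgroup argument). -/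
theorem sylow_le_commutator {G : Type*} [Group G] [Finite G] (hG : Cfsg.IsMinSimpleOddOrder G)
    (M : Subgroup G) (p : ℕ) [Fact p.Prime] (hp : p ∈ sigma M)
    (hfus : ∀ X : Subgroup G, IsPGroup p X → X ≠ ⊥ → X ≤ M →
      ∀ g : G, X.map (MulAut.conj g).toMonoidHom ≤ M →
        ∃ m ∈ M, ∃ c ∈ Subgroup.centralizer (X : Set G), g = m * c)
    {P : Subgroup G} (hP : IsSylowIn p P M) : P ≤ ⁅M, M⁆ := by
  obtain ⟨S, rfl⟩ := exists_sylow_of_sigma hp hP
  exact Cfsg.Agent.Lib.Helper9.BG.sylow_le_commutator_of_sigma hG M p hfus S hP.1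

/-- For `p ∈ σ(M)`, every Sylow `p`-subgroup of `M` lies in `M_σ`. -/
theorem sylow_le_sigmaCore {G : Type*} [Group G] [Finite G] (hG : Cfsg.IsMinSimpleOddOrder G)
    (M : Subgroup G)
    (hβσ : ∀ q : ℕ, q ∈ Cfsg.beta M → q ∈ Cfsg.sigma M)
    (hcompl : ∀ q : ℕ, q.Prime → q ∣ Nat.card M → q ∉ Cfsg.beta M →
      Cfsg.HasNormalPComplement q ↥⁅M, M⁆)
    (p : ℕ) [Fact p.Prime] (hp : p ∈ sigma M)
    (hfus : ∀ X : Subgroup G, IsPGroup p X → X ≠ ⊥ → X ≤ M →
      ∀ g : G, X.map (MulAut.conj g).toMonoidHom ≤ M →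
        ∃ m ∈ M, ∃ c ∈ Subgroup.centralizer (X : Set G), g = m * c)
    {P : Subgroup G} (hP : IsSylowIn p P M) : P ≤ Cfsg.sigmaCore M := by
  have hPD : P ≤ ⁅M, M⁆ := sylow_le_commutator hG M p hp hfus hP
  have hPp : IsPGroup p P := sylIn_isPGroup hP
  -- the normal closure of `P` in `M`
  obtain ⟨Y', hY'⟩ : ∃ Y' : Subgroup ↥M,
      Y' = Subgroup.normalClosure ((P.subgroupOf M : Subgroup ↥M) : Set ↥M) := ⟨_, rfl⟩
  have hY'n : Y'.Normal := hY' ▸ Subgroup.normalClosure_normal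
  have hPY' : P.subgroupOf M ≤ Y' := hY' ▸ Subgroup.le_normalClosure
  have hYmin : ∀ N : Subgroup ↥M, N.Normal → P.subgroupOf M ≤ N → Y' ≤ N := by
    intro N hN hPN
    rw [hY']
    have := hN
    exact Subgroup.normalClosure_le_normal hPN
  have hYM : Y'.map M.subtype ≤ M := Subgroup.map_subtype_le Y'
  have hPY : P ≤ Y'.map M.subtype := by
    intro x hx
    exact ⟨⟨x, hP.1 hx⟩, hPY' (Subgroup.mem_subgroupOf.mpr hx), rfl⟩
  have hYnorm : M ≤ Subgroup.normalizer ((Y'.map M.subtype : Subgroup G) : Set G) := by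
    intro m hm
    apply Cfsg.Agent.Lib.Helper75.BG.mem_normalizer_of_map_le
    rintro _ ⟨_, ⟨y, hy, rfl⟩, rfl⟩
    exact ⟨⟨m, hm⟩ * y * ⟨m, hm⟩⁻¹, hY'n.conj_mem y hy ⟨m, hm⟩, rfl⟩
  have hYπ : ∀ q : ℕ, q.Prime → q ∣ Nat.card (Y'.map M.subtype) → q ∈ sigma M := by
    intro q hq hdvd
    by_contra hqσ
    have : Fact q.Prime := ⟨hq⟩
    have hqM : q ∣ Nat.card M := hdvd.trans (Subgroup.card_dvd_of_le hYM)
    have hqβ : q ∉ Cfsg.beta M := fun h => hqσ (hβσ q h)
    obtain ⟨K, hKD, hqK, hmax⟩ := exists_qcompl ⁅M, M⁆ q (hcompl q hq hqM hqβ)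
    have hKnorm : M ≤ Subgroup.normalizer (K : Set G) :=
      le_normalizer_qcompl M ⁅M, M⁆ K q (le_normalizer_commutator_self M) hKD hqK hmax
    have hKM : K ≤ M := hKD.trans (Subgroup.commutator_le_self M)
    have hpq : p ≠ q := by
      rintro rfl
      exact hqσ hp
    have hqP : ¬ q ∣ Nat.card P := by
      intro h
      obtain ⟨n, hn⟩ := IsPGroup.iff_card.mp hPp
      rw [hn] at h
      exact hpq ((Nat.prime_dvd_prime_iff_eq hq Fact.out).mp (hq.dvd_of_dvd_pow h)).symm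
    have hPK : P ≤ K := hmax P hPD hqP
    have hKn' : (K.subgroupOf M).Normal :=
      (Subgroup.normal_subgroupOf_iff_le_normalizer hKM).mpr hKnorm
    have hY'K : Y' ≤ K.subgroupOf M := by
      apply hYmin _ hKn'
      intro x hx
      rw [Subgroup.mem_subgroupOf] at hx ⊢
      exact hPK hx
    have hYK : Y'.map M.subtype ≤ K := by
      rintro _ ⟨y, hy, rfl⟩
      exact Subgroup.mem_subgroupOf.mp (hY'K hy)
    exact hqK (hdvd.trans (Subgroup.card_dvd_of_le hYK))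
  have hle : Y'.map M.subtype ≤ piCoreOf (sigma M) M :=
    Cfsg.Agent.Lib.Helper23.le_piCoreOf_of_normal hYM hYnorm hYπ
  exact hPY.trans hle

/-- The prime divisors of `|M_σ|` lie in `σ(M)`. -/
theorem sigmaCore_isPi {G : Type*} [Group G] [Finite G] (M : Subgroup G) :
    ∀ q : ℕ, q.Prime → q ∣ Nat.card (Cfsg.sigmaCore M) → q ∈ sigma M :=
  Cfsg.Agent.Lib.Helper23.piCoreOf_isPi (sigma M) M

theorem sigmaCore_le {G : Type*} [Group G] (M : Subgroup G) : Cfsg.sigmaCore M ≤ M :=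
  Subgroup.map_subtype_le _

theorem le_normalizer_sigmaCore {G : Type*} [Group G] (M : Subgroup G) :
    M ≤ Subgroup.normalizer ((Cfsg.sigmaCore M : Subgroup G) : Set G) :=
  Cfsg.Agent.Lib.Helper23.piCoreOf_normalizer (sigma M) M

/-- A Sylow `p`-subgroup of `M_σ` is a Sylow `p`-subgroup of `M` when `p ∈ σ(M)`. -/
theorem isSylowIn_of_sigmaCore {G : Type*} [Group G] [Finite G] (hG : Cfsg.IsMinSimpleOddOrder G)
    (M : Subgroup G)
    (hβσ : ∀ q : ℕ, q ∈ Cfsg.beta M → q ∈ Cfsg.sigma M)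
    (hcompl : ∀ q : ℕ, q.Prime → q ∣ Nat.card M → q ∉ Cfsg.beta M →
      Cfsg.HasNormalPComplement q ↥⁅M, M⁆)
    (p : ℕ) [Fact p.Prime] (hp : p ∈ sigma M)
    (hfus : ∀ X : Subgroup G, IsPGroup p X → X ≠ ⊥ → X ≤ M →
      ∀ g : G, X.map (MulAut.conj g).toMonoidHom ≤ M →
        ∃ m ∈ M, ∃ c ∈ Subgroup.centralizer (X : Set G), g = m * c)
    {Q : Subgroup G} (hQ : IsSylowIn p Q (Cfsg.sigmaCore M)) : IsSylowIn p Q M := by
  obtain ⟨P, hP, -⟩ := exists_isSylowIn_ge (p := p) (Q := (⊥ : Subgroup G)) (H := M)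
    IsPGroup.of_bot bot_le
  have hPσ : P ≤ Cfsg.sigmaCore M := sylow_le_sigmaCore hG M hβσ hcompl p hp hfus hP
  have hP' : IsSylowIn p P (Cfsg.sigmaCore M) := sylIn_mono hP hPσ (sigmaCore_le M)
  exact sylIn_of_card_eq hP (hQ.1.trans (sigmaCore_le M)) (hQ.2.trans hP'.2.symm)

/-- `p ∈ σ(M)` does not divide the index of a subgroup of `M` containing a Sylow `p`-subgroup. -/
theorem not_dvd_relIndex_of_sylIn_le {G : Type*} [Group G] [Finite G] {M P H : Subgroup G} {p : ℕ}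
    [hp : Fact p.Prime] (hP : IsSylowIn p P M) (hPH : P ≤ H) (hHM : H ≤ M) :
    ¬ p ∣ H.relIndex M := by
  intro hdvd
  have h1 : P.relIndex H * H.relIndex M = P.relIndex M := Subgroup.relIndex_mul_relIndex P H M hPH hHM
  have h2 : p ∣ P.relIndex M := h1 ▸ Dvd.dvd.mul_left hdvd _
  obtain ⟨S, rfl⟩ := hP.exists_sylow
  have h3 : ((S : Subgroup ↥M).map M.subtype).relIndex M = (S : Subgroup ↥M).index := by
    unfold Subgroup.relIndex
    congr 1
    ext x
    rw [Subgroup.mem_subgroupOf]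
    constructor
    · rintro ⟨y, hy, hxy⟩
      have : y = x := Subtype.ext hxy
      rwa [← this]
    · intro hx
      exact ⟨x, hx, rfl⟩
  rw [h3] at h2
  exact S.not_dvd_index h2

/-- `M_σ` is a Hall subgroup of `M`. -/
theorem sigmaCore_coprime_index {G : Type*} [Group G] [Finite G] (hG : Cfsg.IsMinSimpleOddOrder G)
    (M : Subgroup G)
    (hβσ : ∀ q : ℕ, q ∈ Cfsg.beta M → q ∈ Cfsg.sigma M)
    (hcompl : ∀ q : ℕ, q.Prime → q ∣ Nat.card M → q ∉ Cfsg.beta M →
      Cfsg.HasNormalPComplement q ↥⁅M, M⁆)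
    (hfus : ∀ (p : ℕ) [Fact p.Prime], p ∈ sigma M →
      ∀ X : Subgroup G, IsPGroup p X → X ≠ ⊥ → X ≤ M →
      ∀ g : G, X.map (MulAut.conj g).toMonoidHom ≤ M →
        ∃ m ∈ M, ∃ c ∈ Subgroup.centralizer (X : Set G), g = m * c) :
    (Nat.card (Cfsg.sigmaCore M)).Coprime ((Cfsg.sigmaCore M).relIndex M) := by
  apply Nat.coprime_of_dvd
  intro p hp hdvd hidx
  have : Fact p.Prime := ⟨hp⟩
  have hpσ : p ∈ sigma M := sigmaCore_isPi M p hp hdvd
  obtain ⟨P, hP, -⟩ := exists_isSylowIn_ge (p := p) (Q := (⊥ : Subgroup G)) (H := M)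
    IsPGroup.of_bot bot_le
  have hPσ : P ≤ Cfsg.sigmaCore M :=
    sylow_le_sigmaCore hG M hβσ hcompl p hpσ (hfus p hpσ) hP
  exact not_dvd_relIndex_of_sylIn_le hP hPσ (sigmaCore_le M) hidx

/-- `M_σ ≤ M'`. -/
theorem sigmaCore_le_commutator {G : Type*} [Group G] [Finite G] (hG : Cfsg.IsMinSimpleOddOrder G)
    (M : Subgroup G)
    (hfus : ∀ (p : ℕ) [Fact p.Prime], p ∈ sigma M →
      ∀ X : Subgroup G, IsPGroup p X → X ≠ ⊥ → X ≤ M →
      ∀ g : G, X.map (MulAut.conj g).toMonoidHom ≤ M →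
        ∃ m ∈ M, ∃ c ∈ Subgroup.centralizer (X : Set G), g = m * c) :
    Cfsg.sigmaCore M ≤ ⁅M, M⁆ := by
  have hDM : (⁅M, M⁆ : Subgroup G) ≤ M := Subgroup.commutator_le_self M
  have hn : ((⁅M, M⁆ : Subgroup G).subgroupOf M).Normal :=
    (Subgroup.normal_subgroupOf_iff_le_normalizer hDM).mpr (le_normalizer_commutator_self M)
  have hcop : (Nat.card ((Cfsg.sigmaCore M).subgroupOf M)).Coprime
      ((⁅M, M⁆ : Subgroup G).subgroupOf M).index := by
    rw [Nat.card_congr (Subgroup.subgroupOfEquivOfLe (sigmaCore_le M)).toEquiv]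
    apply Nat.coprime_of_dvd
    intro p hp hdvd hidx
    have : Fact p.Prime := ⟨hp⟩
    have hpσ : p ∈ sigma M := sigmaCore_isPi M p hp hdvd
    obtain ⟨P, hP, -⟩ := exists_isSylowIn_ge (p := p) (Q := (⊥ : Subgroup G)) (H := M)
      IsPGroup.of_bot bot_le
    have hPD : P ≤ ⁅M, M⁆ := sylow_le_commutator hG M p hpσ (hfus p hpσ) hP
    exact not_dvd_relIndex_of_sylIn_le hP hPD hDM hidx
  have hle := le_of_coprime_index_normal _ _ hcop
  intro x hx
  exact Subgroup.mem_subgroupOf.mp (hle (x := ⟨x, sigmaCore_le M hx⟩) (Subgroup.mem_subgroupOf.mpr hx))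

end Cfsg.Agent.Lib.Helper31.BG
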