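import Mathlib
import Cfsg.Prelude.Def_OddOrderLocal
import Cfsg.Agent.Lib.Helper31.BG.SigmaHall
import Cfsg.Agent.Lib.Helper23.Compl

/-!
Group-theoretic tools for the Bender–Glauberman chain: the focal subgroup of a Sylow subgroup
in a group with a normal `p`-complement, groups of order `p ^ 3`, central products.
-/

set_option autoImplicit false

namespace Cfsg.Agent.Lib.Helper31.BG

open Cfsg Cfsg.Agent.Lib.Helper46 Cfsg.Agent.Lib.Helper35.BG
open scoped commutatorElement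

/-- If `H = N ⋊ S` then `S ∩ H' = S'`. -/
theorem inf_commutator_le_of_compl {H : Type*} [Group H] (N S : Subgroup H) [hN : N.Normal]
    (hdisj : N ⊓ S = ⊥) (hsup : N ⊔ S = ⊤) : S ⊓ commutator H ≤ ⁅S, S⁆ := by
  have hdec : ∀ x : H, ∃ n ∈ N, ∃ s ∈ S, x = n * s := by
    intro x
    have hx : x ∈ (↑(N ⊔ S) : Set H) := by
      rw [hsup]; exact Subgroup.mem_top x
    rw [Subgroup.normal_mul] at hx
    obtain ⟨n, hn, s, hs, rfl⟩ := Set.mem_mul.mp hx
    exact ⟨n, hn, s, hs, rfl⟩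
  have hcomm : commutator H ≤ N ⊔ ⁅S, S⁆ := by
    rw [commutator_def, Subgroup.commutator_le]
    intro a _ b _
    obtain ⟨n₁, hn₁, s₁, hs₁, rfl⟩ := hdec a
    obtain ⟨n₂, hn₂, s₂, hs₂, rfl⟩ := hdec b
    have h1 : ⁅n₁ * s₁, n₂ * s₂⁆ * ⁅s₁, s₂⁆⁻¹ ∈ N := by
      have e1 : (QuotientGroup.mk n₁ : H ⧸ N) = 1 := (QuotientGroup.eq_one_iff n₁).mpr hn₁
      have e2 : (QuotientGroup.mk n₂ : H ⧸ N) = 1 := (QuotientGroup.eq_one_iff n₂).mpr hn₂
      apply (QuotientGroup.eq_one_iff _).mp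
      simp only [commutatorElement_def, QuotientGroup.mk_mul, QuotientGroup.mk_inv, e1, e2,
        one_mul]
      group
    have h2 : ⁅n₁ * s₁, n₂ * s₂⁆ = ⁅n₁ * s₁, n₂ * s₂⁆ * ⁅s₁, s₂⁆⁻¹ * ⁅s₁, s₂⁆ :=
      (inv_mul_cancel_right _ _).symm
    rw [h2]
    exact Subgroup.mul_mem_sup h1 (Subgroup.commutator_mem_commutator hs₁ hs₂)
  rintro x ⟨hxS, hxc⟩
  have hx' : x ∈ (↑(N ⊔ ⁅S, S⁆) : Set H) := hcomm hxc
  rw [Subgroup.normal_mul] at hx'
  obtain ⟨n, hn, t, ht, rfl⟩ := Set.mem_mul.mp hx'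
  have htS : t ∈ S := Subgroup.commutator_le_self S ht
  have hnS : n ∈ S := by
    have e : n = n * t * t⁻¹ := by group
    rw [e]; exact S.mul_mem hxS (S.inv_mem htS)
  have hn1 : n = 1 := by
    have h3 : n ∈ N ⊓ S := ⟨hn, hnS⟩
    rwa [hdisj, Subgroup.mem_bot] at h3
  rw [hn1, one_mul]; exact ht

/-- In a group `Hs` with a normal `p`-complement, a `p`-subgroup of `Hs'` lies in the derived
subgroup of some Sylow `p`-subgroup of `Hs`. -/
theorem exists_sylow_commutator_ge {G : Type*} [Group G] [Finite G] (Hs : Subgroup G) (p : ℕ)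
    [hp : Fact p.Prime] (hc : Cfsg.HasNormalPComplement p ↥Hs) (X : Subgroup G)
    (hXp : IsPGroup p X) (hX : X ≤ ⁅Hs, Hs⁆) :
    ∃ Q : Subgroup G, IsSylowIn p Q Hs ∧ X ≤ ⁅Q, Q⁆ := by
  obtain ⟨S₀, N, hN, hcomp⟩ := hc
  have hXH : X ≤ Hs := hX.trans (Subgroup.commutator_le_self Hs)
  have hX'p : IsPGroup p (X.subgroupOf Hs) :=
    hXp.of_equiv (Subgroup.subgroupOfEquivOfLe hXH).symm
  obtain ⟨S₁, hS₁⟩ := hX'p.exists_le_sylow
  have hcard0 : Nat.card N * Nat.card (S₀ : Subgroup ↥Hs) = Nat.card ↥Hs := hcomp.card_mul_card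
  have hS01 : Nat.card (S₁ : Subgroup ↥Hs) = Nat.card (S₀ : Subgroup ↥Hs) := by
    rw [Sylow.card_eq_multiplicity, Sylow.card_eq_multiplicity]
  have hidxS : (S₀ : Subgroup ↥Hs).index = Nat.card N := by
    have h1 := Subgroup.card_mul_index (S₀ : Subgroup ↥Hs)
    have hpos : 0 < Nat.card (S₀ : Subgroup ↥Hs) := Nat.card_pos
    apply Nat.eq_of_mul_eq_mul_left hpos
    rw [h1, ← hcard0, mul_comm]
  have hpN : ¬ p ∣ Nat.card N := by
    rw [← hidxS]; exact S₀.not_dvd_index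
  have hcopN : (Nat.card N).Coprime (Nat.card (S₁ : Subgroup ↥Hs)) := by
    obtain ⟨n, hn⟩ := IsPGroup.iff_card.mp S₁.isPGroup'
    rw [hn]
    exact Nat.Coprime.pow_right n ((Nat.Prime.coprime_iff_not_dvd hp.out).mpr hpN).symm
  have hcomp1 : N.IsComplement' (S₁ : Subgroup ↥Hs) :=
    Subgroup.isComplement'_of_coprime (by rw [hS01]; exact hcard0) hcopN
  have hdisj : N ⊓ (S₁ : Subgroup ↥Hs) = ⊥ := hcomp1.disjoint.eq_bot
  have hsup := hcomp1.sup_eq_top
  have hfoc := inf_commutator_le_of_compl N (S₁ : Subgroup ↥Hs) hdisj hsup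
  refine ⟨(S₁ : Subgroup ↥Hs).map Hs.subtype, isSylowIn_of_sylow S₁, ?_⟩
  intro x hx
  have hxc : x ∈ ⁅Hs, Hs⁆ := hX hx
  rw [← Subgroup.map_subtype_commutator] at hxc
  obtain ⟨x', hx'c, rfl⟩ := hxc
  have hx'S : x' ∈ (S₁ : Subgroup ↥Hs) := hS₁ (Subgroup.mem_subgroupOf.mpr hx)
  have h4 := hfoc ⟨hx'S, hx'c⟩
  rw [← Subgroup.map_commutator]
  exact ⟨x', h4, rfl⟩

/-- In a group of order `p ^ 3` the derived subgroup is central. -/
theorem commutator_le_center_of_card_cube {P : Type*} [Group P] [Finite P] (p : ℕ)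
    [hp : Fact p.Prime] (h : Nat.card P = p ^ 3) : commutator P ≤ Subgroup.center P := by
  have hP : IsPGroup p P := IsPGroup.of_card h
  have hnt : Nontrivial P := by
    apply Finite.one_lt_card_iff_nontrivial.mp
    rw [h]
    exact Nat.one_lt_pow (by norm_num) hp.out.one_lt
  have hZnt : Nontrivial (Subgroup.center P) := hP.center_nontrivial
  have hZp : IsPGroup p (Subgroup.center P) := hP.to_subgroup _
  obtain ⟨k, hk⟩ := IsPGroup.iff_card.mp hZp
  have hk1 : 1 ≤ k := by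
    by_contra hk0
    have hk00 : k = 0 := by omega
    subst hk00
    rw [pow_zero] at hk
    have := Finite.one_lt_card_iff_nontrivial.mpr hZnt
    omega
  have hqcard : Nat.card (P ⧸ Subgroup.center P) * p ^ k = p ^ 3 := by
    rw [← Subgroup.index_eq_card, ← hk, mul_comm, ← h]
    exact Subgroup.card_mul_index _
  have hk3 : k ≤ 3 := by
    by_contra hlt
    push Not at hlt
    have h1 : p ^ 3 < p ^ k := Nat.pow_lt_pow_right hp.out.one_lt hlt
    have hpos : 0 < Nat.card (P ⧸ Subgroup.center P) := Nat.card_pos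
    nlinarith
  have hq : Nat.card (P ⧸ Subgroup.center P) = p ^ (3 - k) := by
    have h1 : p ^ (3 - k) * p ^ k = p ^ 3 := by
      rw [← pow_add]; congr 1; omega
    exact Nat.eq_of_mul_eq_mul_right (pow_pos hp.out.pos k) (hqcard.trans h1.symm)
  have hqc : ∀ a b : P ⧸ Subgroup.center P, a * b = b * a := by
    have hcases : 3 - k = 0 ∨ 3 - k = 1 ∨ 3 - k = 2 := by omega
    rcases hcases with h0 | h1 | h2
    · rw [h0, pow_zero] at hq
      have hss : Subsingleton (P ⧸ Subgroup.center P) := (Nat.card_eq_one_iff_unique.mp hq).1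
      intro a b; exact Subsingleton.elim _ _
    · rw [h1, pow_one] at hq
      have hcyc : IsCyclic (P ⧸ Subgroup.center P) := isCyclic_of_prime_card hq
      intro a b
      exact (IsCyclic.commGroup (α := P ⧸ Subgroup.center P)).mul_comm a b
    · rw [h2] at hq
      exact isMulCommutative_iff.mp (IsPGroup.isMulCommutative_of_card_eq_prime_sq hq)
  rw [commutator_def, Subgroup.commutator_le]
  intro a _ b _
  apply (QuotientGroup.eq_one_iff _).mp
  have h5 := hqc (QuotientGroup.mk a) (QuotientGroup.mk b)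
  rw [commutatorElement_def]
  simp only [QuotientGroup.mk_mul, QuotientGroup.mk_inv]
  rw [h5]; group

/-- A normal subgroup of prime index contains the derived subgroup. -/
theorem commutator_le_of_index_prime {P : Type*} [Group P] (T : Subgroup P) [T.Normal] {p : ℕ}
    [hp : Fact p.Prime] (h : T.index = p) : commutator P ≤ T := by
  have hq : Nat.card (P ⧸ T) = p := by rw [← Subgroup.index_eq_card]; exact h
  have hcyc : IsCyclic (P ⧸ T) := isCyclic_of_prime_card hq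
  rw [commutator_def, Subgroup.commutator_le]
  intro a _ b _
  apply (QuotientGroup.eq_one_iff _).mp
  have h5 := (IsCyclic.commGroup (α := P ⧸ T)).mul_comm (QuotientGroup.mk a) (QuotientGroup.mk b)
  rw [commutatorElement_def]
  simp only [QuotientGroup.mk_mul, QuotientGroup.mk_inv]
  rw [h5]; group

/-- In a central product `Q = P₁ P₂` with `|P₁| = p ^ 3` and `P₂` cyclic, `Q'` is central. -/
theorem commutator_central_of_cprod {G : Type*} [Group G] [Finite G] (p : ℕ) [Fact p.Prime]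
    (Q P₁ P₂ : Subgroup G) (hsup : P₁ ⊔ P₂ = Q) (hcomm : ∀ a ∈ P₁, ∀ b ∈ P₂, a * b = b * a)
    (hcard : Nat.card P₁ = p ^ 3) (hcyc : IsCyclic P₂) :
    ∀ x ∈ ⁅Q, Q⁆, ∀ y ∈ Q, x * y = y * x := by
  have hP₂c : ∀ b ∈ P₂, ∀ b' ∈ P₂, b * b' = b' * b := by
    intro b hb b' hb'
    have h1 := (IsCyclic.commGroup (α := ↥P₂)).mul_comm ⟨b, hb⟩ ⟨b', hb'⟩
    exact congrArg Subtype.val h1
  have hdec : ∀ y ∈ Q, ∃ a ∈ P₁, ∃ b ∈ P₂, y = a * b := by
    intro y hy
    rw [← hsup] at hy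
    exact Cfsg.Agent.Lib.Helper23.mem_sup_of_commute P₁ P₂ hcomm hy
  have hQ' : ⁅Q, Q⁆ ≤ ⁅P₁, P₁⁆ := by
    rw [Subgroup.commutator_le]
    intro x hx y hy
    obtain ⟨a, ha, b, hb, rfl⟩ := hdec x hx
    obtain ⟨a', ha', b', hb', rfl⟩ := hdec y hy
    have e := Cfsg.Agent.Lib.Helper9.BG.commutatorElement_mul_mul_of_comm
      (hcomm a ha b hb) (hcomm a ha b' hb') (hcomm a' ha' b hb) (hcomm a' ha' b' hb')
    have e2 : ⁅b, b'⁆ = 1 := commutatorElement_eq_one_iff_mul_comm.mpr (hP₂c b hb b' hb')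
    rw [e, e2, mul_one]
    exact Subgroup.commutator_mem_commutator ha ha'
  have hc3 := commutator_le_center_of_card_cube (P := ↥P₁) p hcard
  intro x hx y hy
  have hx1 : x ∈ ⁅P₁, P₁⁆ := hQ' hx
  have hxP₁ : x ∈ P₁ := Subgroup.commutator_le_self P₁ hx1
  rw [← Subgroup.map_subtype_commutator] at hx1
  obtain ⟨x', hx'c, rfl⟩ := hx1
  have hx'z := hc3 hx'c
  obtain ⟨a', ha', b', hb', rfl⟩ := hdec y hy
  have h1 : (x' : G) * a' = a' * x' := by
    have := (Subgroup.mem_center_iff.mp hx'z) ⟨a', ha'⟩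
    exact (congrArg Subtype.val this).symm
  have h2 : (x' : G) * b' = b' * x' := hcomm _ hxP₁ b' hb'
  show (x' : G) * (a' * b') = a' * b' * x'
  calc (x' : G) * (a' * b') = ((x' : G) * a') * b' := by group
    _ = (a' * x') * b' := by rw [h1]
    _ = a' * ((x' : G) * b') := by group
    _ = a' * (b' * x') := by rw [h2]
    _ = a' * b' * x' := by group

end Cfsg.Agent.Lib.Helper31.BG
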